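import Mathlib
import Cfsg.Agent.Lib.Helper19.SPU.Defs

/-!
# SPU (S2316), package [CARDA]: the affine family `𝒜(J_m)` has `q^(m(2m+1))` elements

`X ↦ J * X - C₀` (`C₀ = [0 1; 0 0]`) is a bijection from `𝒜(J)` onto the symmetric matrices, and
symmetric matrices are the functions on unordered pairs of indices.
-/

set_option autoImplicit false

namespace Cfsg.Agent.Lib.Helper22.SPU

open Matrix Cfsg.Agent.Lib.Helper19.SPU

universe u

/-- symmetric matrices are the functions on unordered pairs of indices -/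
def symEquiv (F : Type u) (n : Type) : {S : Matrix n n F // Sᵀ = S} ≃ (Sym2 n → F) :=
  (Equiv.subtypeEquivRight (p := fun S : Matrix n n F => Sᵀ = S)
      (q := fun f : Matrix n n F => ∀ a b, f a b = f b a) (fun S => by
        constructor
        · intro h a b
          have h1 := congrFun (congrFun h b) a
          rw [Matrix.transpose_apply] at h1
          exact h1
        · intro h
          ext a b
          rw [Matrix.transpose_apply]
          exact h b a)).trans
    (Sym2.lift : {f : n → n → F // ∀ a₁ a₂, f a₁ a₂ = f a₂ a₁} ≃ (Sym2 n → F))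

/-- **[CARDA]** -/
theorem pkgCardA : PkgCardA.{u} := by
  intro F _ _ m
  classical
  unfold cA
  obtain ⟨J, hJ⟩ : ∃ J : Matrix (Fin m ⊕ Fin m) (Fin m ⊕ Fin m) F, J = Matrix.J (Fin m) F :=
    ⟨_, rfl⟩
  rw [← hJ]
  have hJJ : J * J = -1 := by rw [hJ]; exact Matrix.J_squared (Fin m) F
  have hJT : Jᵀ = -J := by rw [hJ]; exact Matrix.J_transpose (Fin m) F
  obtain ⟨C0, hC0⟩ : ∃ C0 : Matrix (Fin m ⊕ Fin m) (Fin m ⊕ Fin m) F,
      C0 = Matrix.fromBlocks 0 1 0 0 := ⟨_, rfl⟩
  have hC : C0ᵀ = C0 + J := by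
    rw [hC0, hJ, Matrix.fromBlocks_transpose]
    unfold Matrix.J
    rw [Matrix.fromBlocks_add]
    simp
  have key : ∀ X : Matrix (Fin m ⊕ Fin m) (Fin m ⊕ Fin m) F,
      AffA J X ↔ (J * X - C0)ᵀ = J * X - C0 := by
    intro X
    unfold AffA
    rw [Matrix.transpose_sub, Matrix.transpose_mul, hJT, hC]
    constructor
    · intro h
      have e : Xᵀ * -J - (C0 + J) - (J * X - C0) = -(Xᵀ * J + J * X + J) := by
        rw [Matrix.mul_neg]; abel
      rw [← sub_eq_zero, e, h, neg_zero]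
    · intro h
      have e : Xᵀ * J + J * X + J = -(Xᵀ * -J - (C0 + J) - (J * X - C0)) := by
        rw [Matrix.mul_neg]; abel
      rw [e, sub_eq_zero.mpr h, neg_zero]
  have hinv : ∀ S : Matrix (Fin m ⊕ Fin m) (Fin m ⊕ Fin m) F,
      J * (-J * (S + C0)) - C0 = S := by
    intro S
    rw [← Matrix.mul_assoc, Matrix.mul_neg, hJJ, neg_neg, Matrix.one_mul, add_sub_cancel_right]
  have hinv' : ∀ X : Matrix (Fin m ⊕ Fin m) (Fin m ⊕ Fin m) F,
      -J * (J * X - C0 + C0) = X := by
    intro X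
    rw [sub_add_cancel, ← Matrix.mul_assoc, Matrix.neg_mul, hJJ, neg_neg, Matrix.one_mul]
  let e : {X : Matrix (Fin m ⊕ Fin m) (Fin m ⊕ Fin m) F // AffA J X} ≃
      {S : Matrix (Fin m ⊕ Fin m) (Fin m ⊕ Fin m) F // Sᵀ = S} :=
    { toFun := fun X => ⟨J * X.1 - C0, (key X.1).mp X.2⟩
      invFun := fun S => ⟨-J * (S.1 + C0), (key _).mpr (by rw [hinv]; exact S.2)⟩
      left_inv := fun X => Subtype.ext (hinv' X.1)
      right_inv := fun S => Subtype.ext (hinv S.1) }
  rw [Nat.card_congr (e.trans (symEquiv F (Fin m ⊕ Fin m))), Nat.card_eq_fintype_card,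
    Fintype.card_fun, Sym2.card, Fintype.card_sum, Fintype.card_fin]
  congr 1
  rw [Nat.choose_two_right, Nat.add_sub_cancel]
  exact Nat.div_eq_of_eq_mul_left (by norm_num) (by ring)

end Cfsg.Agent.Lib.Helper22.SPU
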